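import Cfsg.Agent.H84.AltFus

/-! Normalizers of Sylow `p`-subgroups of symmetric groups, `p` odd. -/

set_option autoImplicit false
set_option linter.style.haveILetI false

namespace Cfsg.Agent.H84

open Subgroup Equiv Equiv.Perm

section Mon
variable {ι : Type*} {p : ℕ}

/-- diagonal multiplications -/
def dg : (ι → (ZMod p)ˣ) →* Perm (ι × ZMod p) :=
  MonoidHom.mk' (fun k => prodShear (1 : Perm ι) fun i => (k i).mulLeft) fun k l => by
    ext ⟨i, x⟩ <;> simp [prodShear, mul_assoc]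

@[simp] theorem dg_apply (k : ι → (ZMod p)ˣ) (i : ι) (x : ZMod p) :
    dg k (i, x) = (i, (k i : ZMod p) * x) := rfl

theorem blk_mul_dg (σ : Perm ι) (k : ι → (ZMod p)ˣ) :
    blk p σ * dg k = dg (k ∘ ⇑σ⁻¹) * blk p σ := by
  ext ⟨i, x⟩ <;> simp

variable [Finite ι] [hp : Fact p.Prime]

theorem dg_mem_normalizer {H : Subgroup (Perm ι)} {k : ι → (ZMod p)ˣ}
    (h : ∀ σ ∈ H, ∀ i, k (σ i) = k i) : dg k ∈ normalizer (wrS p H : Set (Perm (ι × ZMod p))) := by
  refine mem_normalizer_fintype ?_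
  rintro _ ⟨σ, hσ, v, rfl⟩
  refine ⟨σ, hσ, fun i => k i * v i, eq_mul_inv_of_mul_eq ?_⟩
  ext ⟨i, x⟩ <;> simp [h σ hσ, mul_add]

theorem blk_mem_normalizer {H : Subgroup (Perm ι)} {τ : Perm ι}
    (h : τ ∈ normalizer (H : Set (Perm ι))) :
    blk p τ ∈ normalizer (wrS p H : Set (Perm (ι × ZMod p))) := by
  refine mem_normalizer_fintype ?_
  rintro _ ⟨σ, hσ, v, rfl⟩
  refine ⟨τ * σ * τ⁻¹, (h σ).1 hσ, v ∘ ⇑τ⁻¹, eq_mul_inv_of_mul_eq ?_⟩
  ext ⟨i, x⟩ <;> simp

theorem blk_mem_normalizer_bot (τ : Perm ι) :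
    blk p τ ∈ normalizer (wrS p (⊥ : Subgroup (Perm ι)) : Set (Perm (ι × ZMod p))) :=
  blk_mem_normalizer (by rw [normalizer_eq_top]; trivial)

theorem dg_mem_normalizer_bot (k : ι → (ZMod p)ˣ) :
    dg k ∈ normalizer (wrS p (⊥ : Subgroup (Perm ι)) : Set (Perm (ι × ZMod p))) :=
  dg_mem_normalizer fun σ hσ i => by rw [mem_bot.1 hσ]; rfl

theorem exists_form {H : Subgroup (Perm ι)} {g : Perm (ι × ZMod p)}
    (hg : g ∈ normalizer (wrS p H : Set (Perm (ι × ZMod p)))) :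
    ∃ σ k v, g = sh 1 v * dg k * blk p σ := by
  classical
  have h1 : ∀ i, ∃ κ : ZMod p, ∀ x, g (i, x) = ((g (i, 0)).1, (g (i, 0)).2 + x * κ) := fun i => by
    obtain ⟨τ, -, w, e⟩ := (hg _).1 (sh_mem H.one_mem (Pi.single i 1))
    have h2 : ∀ z, sh τ w z ≠ z → (g⁻¹ z).1 = i := fun z hz => by
      by_contra h
      refine hz ?_
      rw [e, Perm.mul_apply, Perm.mul_apply, show g⁻¹ z = ((g⁻¹ z).1, (g⁻¹ z).2) from rfl, sh_apply,
        Pi.single_eq_of_ne h]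
      simp
    obtain rfl : τ = 1 := by
      ext j
      by_contra hj
      have h3 : ∀ a x, τ a ≠ a → (g⁻¹ (a, x)).1 = i := fun a x ha =>
        h2 _ fun h => ha (congrArg Prod.fst h)
      have h4 : ∀ b : Bool, τ (cond b j (τ j)) ≠ cond b j (τ j) := by
        rintro (_ | _)
        exacts [fun h => hj (τ.injective h), hj]
      have h5 : Function.Injective fun z : Bool × ZMod p => (g⁻¹ (cond z.1 j (τ j), z.2)).2 := by
        rintro ⟨a, x⟩ ⟨b, y⟩ h
        have h6 := g⁻¹.injective (Prod.ext ((h3 _ x (h4 a)).trans (h3 _ y (h4 b)).symm) h)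
        rw [Prod.mk.injEq] at h6 ⊢
        refine ⟨?_, h6.2⟩
        rcases a with _ | _ <;> rcases b with _ | _
        exacts [rfl, (hj h6.1).elim, (hj h6.1.symm).elim, rfl]
      have := Nat.card_le_card_of_injective _ h5
      have := hp.out.pos
      simp at *
      omega
    refine ⟨w (g (i, 0)).1, fun x => ?_⟩
    obtain ⟨n, rfl⟩ := ZMod.natCast_zmod_surjective x
    induction n with
    | zero => simp
    | succ n ih =>
      have h3 := DFunLike.congr_fun (eq_mul_inv_iff_mul_eq.1 e) (i, (n : ZMod p))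
      simp only [Perm.mul_apply, sh_apply, Pi.single_eq_same, Perm.one_apply, ih] at h3
      rw [Nat.cast_succ, ← h3, add_mul, one_mul, add_assoc]
  choose κ hκ using h1
  have h2 : ∀ i, κ i ≠ 0 := fun i h => by
    have := hκ i 1
    rw [h, mul_zero, add_zero] at this
    simpa using g.injective this
  have h3 : Function.Injective fun i => (g (i, 0)).1 := fun i j h => by
    have := hκ i (((g (j, 0)).2 - (g (i, 0)).2) / κ i)
    rw [div_mul_cancel₀ _ (h2 i), add_sub_cancel, show (g (i, 0)).1 = (g (j, 0)).1 from h] at this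
    exact congrArg Prod.fst (g.injective this)
  obtain ⟨σ, hσ⟩ : ∃ σ : Perm ι, ∀ i, σ i = (g (i, 0)).1 :=
    ⟨ofBijective _ (Finite.injective_iff_bijective.1 h3), fun _ => rfl⟩
  refine ⟨σ, fun j => Units.mk0 _ (h2 (σ⁻¹ j)), fun j => (g (σ⁻¹ j, 0)).2, Equiv.ext ?_⟩
  rintro ⟨i, x⟩
  rw [hκ, ← hσ]
  simp [add_comm, mul_comm]

theorem centralizer_base_le :
    centralizer (wrS p (⊥ : Subgroup (Perm ι)) : Set (Perm (ι × ZMod p))) ≤ wrS p ⊥ := by
  classical
  intro g hg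
  obtain ⟨σ, k, v, rfl⟩ := exists_form (centralizer_le_normalizer _ hg)
  have h : ∀ i, σ i = i ∧ (k i : ZMod p) = 1 := fun i => by
    have h := DFunLike.congr_fun (hg _ (sh_mem (one_mem _) (Pi.single i 1))) (i, 0)
    simp only [Perm.mul_apply, sh_apply, blk_apply, dg_apply, Perm.one_apply, mul_zero, zero_add,
      Pi.single_eq_same, mul_one, Prod.mk.injEq, true_and, add_comm (v _), add_left_inj] at h
    obtain h1 : σ i = i := by
      by_contra h1; exact (k (σ i)).ne_zero (by rw [← h, Pi.single_eq_of_ne h1])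
    exact ⟨h1, by simpa [h1] using h.symm⟩
  exact ⟨1, one_mem _, v, by ext ⟨i, x⟩ <;> simp [h]⟩

end Mon

section Lin
variable {ι : Type*} {p : ℕ}

/-- translation of the first `p` blocks -/
def trH : Multiplicative (ZMod p) →* Perm (ZMod p ⊕ ι) :=
  MonoidHom.mk' (fun a => Equiv.sumCongr (Equiv.addRight a.toAdd) (Equiv.refl ι)) fun a b => by
    ext (i | i) <;> simp [add_comm]

/-- `E × R`, with `E` regular on the first `p²` points -/
def qH : Multiplicative (ZMod p × ZMod p × (ι → ZMod p)) →* Perm ((ZMod p ⊕ ι) × ZMod p) :=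
  MonoidHom.mk' (fun a => sh (trH (.ofAdd a.toAdd.1)) (Sum.elim (fun _ => a.toAdd.2.1) a.toAdd.2.2))
    fun a b => by ext ⟨i | i, x⟩ <;> simp [trH, add_comm, add_left_comm]

@[simp] theorem qH_inl (a : ZMod p × ZMod p × (ι → ZMod p)) (i x : ZMod p) :
    qH (.ofAdd a) (.inl i, x) = (.inl (i + a.1), x + a.2.1) := rfl

@[simp] theorem qH_inr (a : ZMod p × ZMod p × (ι → ZMod p)) (i : ι) (x : ZMod p) :
    qH (.ofAdd a) (.inr i, x) = (.inr i, x + a.2.2 i) := rfl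

theorem qH_le : (qH (p := p) (ι := ι)).range ≤ wrS p trH.range := by
  rintro _ ⟨a, rfl⟩; exact ⟨_, ⟨_, rfl⟩, _, rfl⟩

/-- permutations of the first `p²` points -/
noncomputable def lH : Perm (ZMod p × ZMod p) →* Perm ((ZMod p ⊕ ι) × ZMod p) :=
  viaEmbeddingHom (Function.Embedding.inl.prodMap (.refl _))

@[simp] theorem lH_inl (M : Perm (ZMod p × ZMod p)) (i x : ZMod p) :
    lH M ((.inl i, x) : (ZMod p ⊕ ι) × ZMod p) = (.inl (M (i, x)).1, (M (i, x)).2) :=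
  viaEmbedding_apply M (Function.Embedding.inl.prodMap (.refl _)) (i, x)

@[simp] theorem lH_inr (M : Perm (ZMod p × ZMod p)) (i : ι) (x : ZMod p) :
    lH M (.inr i, x) = (.inr i, x) :=
  viaEmbedding_apply_of_notMem M _ _ (by rintro ⟨⟨a, b⟩, h⟩; cases h)

/-- transvections -/
def upT (s : ZMod p) : Perm (ZMod p × ZMod p) := prodCongrLeft fun x => Equiv.addRight (s * x)

/-- transvections -/
def loT (s : ZMod p) : Perm (ZMod p × ZMod p) := prodCongrRight fun x => Equiv.addRight (s * x)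

@[simp] theorem upT_apply (s i x : ZMod p) : upT s (i, x) = (i + s * x, x) := rfl

@[simp] theorem loT_apply (s i x : ZMod p) : loT s (i, x) = (i, x + s * i) := rfl

theorem upT_pow (s : ZMod p) : upT s ^ p = 1 := by
  have : ∀ n : ℕ, upT s ^ n = upT ((n : ZMod p) * s) := fun n => by
    induction n with
    | zero => ext ⟨i, x⟩ <;> simp
    | succ n ih => rw [pow_succ, ih]; ext ⟨i, x⟩ <;> simp; ring
  rw [this]; ext ⟨i, x⟩ <;> simp

theorem loT_pow (s : ZMod p) : loT s ^ p = 1 := by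
  have : ∀ n : ℕ, loT s ^ n = loT ((n : ZMod p) * s) := fun n => by
    induction n with
    | zero => ext ⟨i, x⟩ <;> simp
    | succ n ih => rw [pow_succ, ih]; ext ⟨i, x⟩ <;> simp; ring
  rw [this]; ext ⟨i, x⟩ <;> simp

variable [Finite ι] [hp : Fact p.Prime]

theorem lH_mem_normalizer {M : Perm (ZMod p × ZMod p)} (h : ∀ y z, M (y + z) = M y + M z) :
    lH M ∈ normalizer ((qH (p := p) (ι := ι)).range : Set (Perm ((ZMod p ⊕ ι) × ZMod p))) := by
  refine mem_normalizer_fintype ?_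
  rintro _ ⟨⟨a, b, w⟩, rfl⟩
  refine ⟨.ofAdd ((M (a, b)).1, (M (a, b)).2, w), eq_mul_inv_of_mul_eq (Equiv.ext ?_)⟩
  change ∀ z, qH _ (lH M z) = lH M (qH (.ofAdd (a, b, w)) z)
  rintro ⟨i | i, x⟩
  · simp [← Prod.mk_add_mk, h]
  · simp

omit [Finite ι] in
theorem centralizer_qH_le : centralizer ((qH (p := p) (ι := ι)).range :
    Set (Perm ((ZMod p ⊕ ι) × ZMod p))) ≤ qH.range := by
  classical
  intro g hg
  have h : ∀ a z, g (qH (.ofAdd a) z) = qH (.ofAdd a) (g z) := fun a z =>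
    (DFunLike.congr_fun (hg _ ⟨.ofAdd a, rfl⟩) z).symm
  obtain ⟨a, b, h1⟩ : ∃ a b, g (.inl 0, 0) = (.inl a, b) := by
    have h1 := h (0, 1, 0) (.inl 0, 0)
    obtain ⟨⟨a | a, b⟩, e⟩ : ∃ z, g (.inl 0, 0) = z := ⟨_, rfl⟩
    · exact ⟨a, b, e⟩
    · simp only [e, qH_inr, Pi.zero_apply, add_zero] at h1
      simpa using g.injective (h1.trans e.symm)
  have h2 : ∀ j, ∃ c, g (.inr j, 0) = (.inr j, c) := fun j => by
    have h1 := h (0, 0, Pi.single j 1) (.inr j, 0)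
    obtain ⟨⟨a | a, b⟩, e⟩ : ∃ z, g (.inr j, 0) = z := ⟨_, rfl⟩
    · simp only [e, qH_inl, add_zero] at h1
      simpa using g.injective (h1.trans e.symm)
    · obtain rfl | ha := eq_or_ne a j
      · exact ⟨b, e⟩
      · simp only [e, qH_inr, Pi.single_eq_of_ne ha, add_zero] at h1
        simpa using g.injective (h1.trans e.symm)
  choose w hw using h2
  refine ⟨.ofAdd (a, b, w), Equiv.ext ?_⟩
  rintro ⟨i | i, x⟩
  · simpa [h1, add_comm] using (h (i, x, 0) (.inl 0, 0)).symm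
  · simpa [hw, add_comm] using (h (0, 0, Pi.single i x) (.inr i, 0)).symm

end Lin

/-- `LocFam` for the even elements of a symmetric group, `p` odd. -/
structure LocF {Λ : Type*} [Fintype Λ] [DecidableEq Λ] (p : ℕ) (P : Subgroup (Perm Λ))
    (R : Subgroup (Perm Λ) → Subgroup (Perm Λ)) : Prop where
  le : ∀ Q, R Q ≤ alternatingGroup Λ
  pElt : ∀ Q ≤ P, ∀ g ∈ normalizer (Q : Set (Perm Λ)), g ^ p = 1 → g ∈ R Q
  up : ∀ Q U, Q ≤ U → U ≤ P → centralizer (Q : Set (Perm Λ)) ≤ Q → (∀ z, ∃ q ∈ Q, q z ≠ z) →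
    ∀ g ∈ R Q, g ∈ normalizer (U : Set (Perm Λ)) → g ∈ R U
  down : ∀ Q U, Q ≤ U → ∀ g ∈ R U, g ∈ normalizer (Q : Set (Perm Λ)) → g ∈ R Q

theorem alt_le_of_pElt {ι : Type*} [Fintype ι] [DecidableEq ι] {p : ℕ} [hp : Fact p.Prime]
    (h2 : p ≠ 2) (hι : p ≤ Fintype.card ι) {K : Subgroup (Perm ι)} (h : ∀ σ, σ ^ p = 1 → σ ∈ K) :
    alternatingGroup ι ≤ K := by
  by_cases h3 : p = 3
  · rw [← closure_three_cycles_eq_alternating, closure_le]
    exact fun σ hσ => h σ (by rw [h3, ← IsThreeCycle.orderOf hσ, pow_orderOf_eq_one])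
  have h5 : 5 ≤ p := hp.out.five_le_of_ne_two_of_ne_three h2 h3
  obtain ⟨c, hc⟩ := exists_prime_orderOf_dvd_card (G := Perm ι) p (by
    rw [Fintype.card_perm]; exact hp.out.dvd_factorial.2 hι)
  refine (alternatingGroup_le_of_normal (N := normalClosure {c})
    (by rw [Nat.card_eq_fintype_card]; omega) ((nontrivial_iff_ne_bot _).2 fun e => ?_)).trans
    ((closure_le _).2 fun σ hσ => ?_)
  · have := subset_normalClosure (Set.mem_singleton c)
    rw [e, SetLike.mem_coe, mem_bot] at this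
    rw [this, orderOf_one] at hc
    omega
  · obtain ⟨_, rfl, h1⟩ := Group.mem_conjugatesOfSet_iff.1 hσ
    obtain ⟨g, rfl⟩ := isConj_iff.1 h1
    exact h _ (by rw [conj_pow, ← hc, pow_orderOf_eq_one, mul_one, mul_inv_cancel])

section Pure
variable {ι : Type*} [Fintype ι] [DecidableEq ι] {p : ℕ} [hp : Fact p.Prime]

theorem LocF.mem_base (h2 : p ≠ 2) (hι : p ≤ Fintype.card ι) {H : Subgroup (Perm ι)}
    {R : Subgroup (Perm (ι × ZMod p)) → Subgroup (Perm (ι × ZMod p))} (h : LocF p (wrS p H) R) :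
    (∀ σ, sign σ = 1 → blk p σ ∈ R (wrS p ⊥)) ∧ ∀ k, ∏ i, k i = 1 → dg k ∈ R (wrS p ⊥) := by
  have h3 : 3 ≤ p := by have := hp.out.two_le; omega
  have h1 : ∀ k σ, sign σ = 1 → dg k * blk p σ * (dg k)⁻¹ ∈ R (wrS p ⊥) := fun k =>
    alt_le_of_pElt h2 hι (K := (R (wrS p ⊥)).comap ((MulAut.conj (dg k)).toMonoidHom.comp (blk p)))
      fun σ hσ => h.pElt _ (wrS_mono bot_le) _ (mul_mem (mul_mem (dg_mem_normalizer_bot k)
        (blk_mem_normalizer_bot σ)) (inv_mem (dg_mem_normalizer_bot k)))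
        (by rw [← map_pow, hσ, map_one])
  have h4 : ∀ σ, sign σ = 1 → blk p σ ∈ R (wrS p ⊥) := fun σ hσ => by simpa using h1 1 σ hσ
  refine ⟨h4, fun k hk => ?_⟩
  haveI := alternatingGroup.isPretransitive_of_three_le_card ι
    (by rw [Nat.card_eq_fintype_card]; omega)
  obtain ⟨i₀⟩ : Nonempty ι := Fintype.card_pos_iff.1 (by omega)
  have h5 : ∀ i t, Pi.mulSingle i t / Pi.mulSingle i₀ t ∈ (R (wrS p ⊥)).comap dg := fun i t => by
    obtain ⟨⟨σ, hσ⟩, e⟩ := MulAction.exists_smul_eq (alternatingGroup ι) i i₀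
    obtain rfl : σ i = i₀ := e
    convert mul_mem (h1 (Pi.mulSingle i t) σ hσ) (inv_mem (h4 σ hσ)) using 1
    rw [mem_comap, ← map_inv, mul_assoc (dg _), blk_mul_dg, mul_assoc, mul_inv_cancel_right,
      ← map_mul, div_eq_mul_inv]
    congr! 3
    ext j
    obtain ⟨j, rfl⟩ := σ.surjective j
    simp [Pi.mulSingle_apply, -ZMod.inv_coe_unit]
  have h6 := prod_mem (t := Finset.univ) fun i _ => h5 i (k i)
  rwa [Finset.prod_div_distrib, Finset.univ_prod_mulSingle,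
    show ∏ i, Pi.mulSingle i₀ (k i) = (1 : ι → (ZMod p)ˣ) from
      (map_prod (MonoidHom.mulSingle (fun _ => (ZMod p)ˣ) i₀) _ _).symm.trans (by rw [hk, map_one]),
    div_one] at h6

theorem LocF.mem_top (h2 : p ≠ 2) {H : Subgroup (Perm (ZMod p ⊕ ι))} (hH : trH.range ≤ H)
    {R : Subgroup (Perm ((ZMod p ⊕ ι) × ZMod p)) → Subgroup (Perm ((ZMod p ⊕ ι) × ZMod p))}
    (h : LocF p (wrS p H) R) {g : Perm ((ZMod p ⊕ ι) × ZMod p)}
    (hg : g ∈ normalizer (wrS p H : Set (Perm ((ZMod p ⊕ ι) × ZMod p)))) (hs : sign g = 1) :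
    g ∈ R (wrS p H) := by
  obtain ⟨h3, h4⟩ := h.mem_base h2 (by simp)
  refine h.up _ _ (wrS_mono bot_le) le_rfl centralizer_base_le (fun z =>
    ⟨_, sh_mem (one_mem _) 1, fun e => by simpa [sh] using congrArg Prod.snd e⟩) g ?_ hg
  obtain ⟨σ, k, v, rfl⟩ := exists_form hg
  have h5 : sh 1 v ∈ R (wrS p ⊥) := h.pElt _ (wrS_mono bot_le) _
    (le_normalizer (sh_mem (one_mem _) v)) (sh_one_pow_char v)
  obtain ⟨t, ht⟩ : ∃ t, ∏ i, k i = t := ⟨_, rfl⟩
  obtain ⟨τ, hτ, hτ'⟩ : ∃ τ : Perm (ZMod p ⊕ ι), (∀ i, τ (.inl i) = .inl ((t : ZMod p)⁻¹ * i)) ∧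
      ∀ i, τ (.inr i) = .inr i :=
    ⟨Equiv.sumCongr t⁻¹.mulLeft (Equiv.refl ι), fun i => by simp [-ZMod.inv_coe_unit], fun _ => rfl⟩
  let l : ZMod p ⊕ ι → (ZMod p)ˣ := Sum.elim (fun _ => t) 1
  have hQ := qH_le.trans (wrS_mono hH)
  have hu : ∀ s, lH (upT s) ∈ R qH.range := fun s => h.pElt _ hQ _
    (lH_mem_normalizer fun y z => Prod.ext (by simp [upT, mul_add]; ring) rfl)
    (by rw [← map_pow, upT_pow, map_one])
  have hl : ∀ s, lH (loT s) ∈ R qH.range := fun s => h.pElt _ hQ _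
    (lH_mem_normalizer fun y z => Prod.ext rfl (by simp [loT, mul_add]; ring))
    (by rw [← map_pow, loT_pow, map_one])
  have h6 : dg l * blk p τ ∈ R qH.range := by
    convert mul_mem (mul_mem (mul_mem (hu (-(t : ZMod p)⁻¹)) (hl (t - 1))) (hu 1))
      (hl ((t : ZMod p)⁻¹ - 1)) using 1
    have := t.ne_zero
    ext ⟨i | i, x⟩ <;> simp [hτ, hτ', l, -ZMod.inv_coe_unit] <;> field_simp <;> ring
  have h7 : dg l * blk p τ ∈ R (wrS p ⊥) := h.down _ _ (wrS_mono bot_le) _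
    (h.up _ _ qH_le (wrS_mono hH) centralizer_qH_le (fun z => ⟨_, ⟨.ofAdd (0, 1, 1), rfl⟩,
      fun e => by rcases z with ⟨i | i, x⟩ <;> simpa using congrArg Prod.snd e⟩) _ h6
      (mul_mem (dg_mem_normalizer (by rintro _ ⟨a, rfl⟩ (i | i) <;> rfl))
        (blk_mem_normalizer (mem_normalizer_fintype (by
          rintro _ ⟨a, rfl⟩
          refine ⟨.ofAdd ((t : ZMod p)⁻¹ * a.toAdd), eq_mul_inv_of_mul_eq ?_⟩
          ext (i | i) <;> simp [hτ, hτ', trH, mul_add, -ZMod.inv_coe_unit])))))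
    (mul_mem (dg_mem_normalizer_bot _) (blk_mem_normalizer_bot _))
  have h8 := h4 (k * l⁻¹ ∘ ⇑(σ * τ⁻¹)⁻¹) (by
    simp only [Pi.mul_apply, Function.comp_apply, Finset.prod_mul_distrib]
    rw [Equiv.prod_comp (σ * τ⁻¹)⁻¹ l⁻¹]
    simp [l, ht, ZMod.units_pow_card_sub_one_eq_one, ← pow_sub_one_mul hp.out.ne_zero])
  have e : sh 1 v * dg k * blk p σ = sh 1 v * dg (k * l⁻¹ ∘ ⇑(σ * τ⁻¹)⁻¹) * blk p (σ * τ⁻¹) *
      (dg l * blk p τ) := by
    rw [map_mul dg, mul_assoc (sh 1 v) (_ * _), mul_assoc (dg k), ← blk_mul_dg, map_inv, map_mul,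
      map_inv]
    group
  rw [e] at hs ⊢
  refine mul_mem (mul_mem (mul_mem h5 h8) (h3 _ ?_)) h7
  rw [map_mul, map_mul, map_mul, h.le _ h5, h.le _ h8, h.le _ h7, one_mul, one_mul, mul_one,
    sign_blk] at hs
  rwa [Int.units_pow_eq_pow_mod_two, Nat.odd_iff.1 (hp.out.odd_of_ne_two h2), pow_one] at hs

end Pure

section Emb
variable {Λ Ω : Type*} [Fintype Λ] [DecidableEq Λ] [Fintype Ω] [DecidableEq Ω] (j : Λ ↪ Ω)

omit [DecidableEq Λ] [Fintype Ω] [DecidableEq Ω] in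
theorem exists_of_mem_normalizer (hj : ∀ a ∉ Set.range j, ∀ b ∉ Set.range j, a = b)
    {Q : Subgroup (Perm Λ)} (hQ : ∀ z, ∃ q ∈ Q, q z ≠ z) {g : Perm Ω}
    (hg : g ∈ normalizer (Q.map (viaEmbeddingHom j) : Set (Perm Ω))) :
    ∃ g' ∈ normalizer (Q : Set (Perm Λ)), viaEmbeddingHom j g' = g := by
  have h1 : ∀ z, ∃ w, j w = g (j z) := fun z => by
    by_contra h
    obtain ⟨q, hq, hz⟩ := hQ z
    obtain ⟨q', -, e⟩ := (hg _).1 (mem_map_of_mem _ hq)
    have h2 := viaEmbedding_apply_of_notMem q' j _ h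
    rw [← viaEmbeddingHom_apply, e, Perm.mul_apply, Perm.mul_apply, Perm.coe_inv, symm_apply_apply,
      viaEmbeddingHom_apply, viaEmbedding_apply] at h2
    exact hz (j.injective (g.injective h2))
  choose f hf using h1
  obtain ⟨g', hg'⟩ : ∃ g' : Perm Λ, ∀ z, j (g' z) = g (j z) :=
    ⟨ofBijective f (Finite.injective_iff_bijective.1 fun a b h =>
      j.injective (g.injective (by rw [← hf, h, hf]))), hf⟩
  obtain rfl : viaEmbeddingHom j g' = g := by
    ext z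
    by_cases hz : z ∈ Set.range j
    · obtain ⟨w, rfl⟩ := hz
      rw [viaEmbeddingHom_apply, viaEmbedding_apply, hg']
    · rw [viaEmbeddingHom_apply, viaEmbedding_apply_of_notMem _ _ _ hz]
      refine hj _ hz _ fun ⟨w, hw⟩ => hz ⟨g'⁻¹ w, g.injective ?_⟩
      rw [← hg', Perm.coe_inv, apply_symm_apply, hw]
  refine ⟨g', mem_normalizer_fintype fun x hx => ?_, rfl⟩
  have := (hg _).1 (mem_map_of_mem _ hx)
  rwa [← map_inv, ← map_mul, ← map_mul, SetLike.mem_coe,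
    mem_map_iff_mem (viaEmbeddingHom_injective j)] at this

theorem LocFam.comap {p : ℕ} (hp : Odd p) (hj : ∀ a ∉ Set.range j, ∀ b ∉ Set.range j, a = b)
    {P : Subgroup (Perm Λ)} {R : Subgroup (Perm Ω) → Subgroup (Perm Ω)}
    (h : LocFam p (alternatingGroup Ω) (P.map (viaEmbeddingHom j)) R) :
    LocF p P fun Q => (R (Q.map (viaEmbeddingHom j))).comap (viaEmbeddingHom j) := by
  have hn : ∀ (Q : Subgroup (Perm Λ)) g, g ∈ normalizer (Q : Set (Perm Λ)) →
      viaEmbeddingHom j g ∈ normalizer (Q.map (viaEmbeddingHom j) : Set (Perm Ω)) :=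
    fun Q g hg => le_normalizer_map _ (mem_map_of_mem _ hg)
  refine ⟨fun Q g hg => (sign_viaEmbeddingHom j g).symm.trans (h.le _ hg), fun Q hQ g hg e =>
    h.pElt _ (map_mono hQ) _ ?_ (hn Q g hg) (by rw [← map_pow, e, map_one]),
    fun Q U hQU hU hC hQ g hg hgU => h.up _ _ (map_mono hQU) (map_mono hU) (fun c hc => ?_) _ hg
      (hn U g hgU), fun Q U hQU g hg hgQ => h.down _ _ (map_mono hQU) _ hg (hn Q g hgQ)⟩
  · have := congrArg sign e
    rwa [map_pow, Int.units_pow_eq_pow_mod_two, Nat.odd_iff.1 hp, pow_one, map_one,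
      ← sign_viaEmbeddingHom j] at this
  · obtain ⟨c, -, rfl⟩ := exists_of_mem_normalizer j hj hQ (centralizer_le_normalizer _ hc)
    exact mem_map_of_mem _ (hC fun x hx => viaEmbeddingHom_injective j (by
      rw [map_mul, map_mul]; exact hc _ (mem_map_of_mem _ hx)))

end Emb

end Cfsg.Agent.H84
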