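import Cfsg.Agent.N9.Defs
import Cfsg.Agent.H10.UFrame

/-! A Pauli frame for `3^(1+4)` in `GL₉`. -/

set_option autoImplicit false
set_option linter.unusedSectionVars false
set_option linter.unusedVariables false
set_option linter.unusedSimpArgs false

namespace Cfsg.Agent.H84.N9F

open Cfsg Cfsg.Geo Cfsg.Agent.H98 Cfsg.Agent.H99 Cfsg.Agent.H85.L3 Cfsg.Agent.N9 Matrix

section Grp

variable {G : Type*} [Group G] {z : G}

/-- `g` conjugates `r` to `z ^ t * r` -/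
def E (z g r : G) (t : ℕ) : Prop := g * r * g⁻¹ = z ^ t * r

theorem E.mul (hz : ∀ g, z * g = g * z) {g r s : G} {a b : ℕ} (h1 : E z g r a) (h2 : E z g s b) :
    E z g (r * s) (a + b) := by
  unfold E at *
  have k : z ^ b * r = r * z ^ b := (Commute.pow_left (hz r) b).eq
  rw [← conj_mul, h1, h2, pow_add, mul_assoc, mul_assoc, ← mul_assoc r, ← k, mul_assoc]

theorem E.of_comm {g r : G} (h : g * r = r * g) : E z g r 0 := by
  rw [E, h, pow_zero, one_mul, mul_inv_cancel_right]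

theorem E.pow (hz : ∀ g, z * g = g * z) {g r : G} {a : ℕ} (h1 : E z g r a) (n : ℕ) :
    E z g (r ^ n) (a * n) := by
  induction n with
  | zero => simpa using E.of_comm (z := z) (g := g) (r := 1) (by simp)
  | succ n ih => rw [pow_succ, Nat.mul_succ]; exact ih.mul hz h1

theorem E.comm (z3 : z ^ 3 = 1) {g r : G} {a : ℕ} (h1 : E z g r (3 * a)) : g * r = r * g := by
  rw [E, pow_mul, z3, one_pow, one_mul, mul_inv_eq_iff_eq_mul] at h1
  exact h1

theorem E.symm (hz : ∀ g, z * g = g * z) (z3 : z ^ 3 = 1) {g r : G} {a : ℕ} (h1 : E z g r a) :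
    E z r g (2 * a) := by
  unfold E at *
  have k : z ^ (2 * a) * z ^ a = 1 := by
    rw [← pow_add, show 2 * a + a = 3 * a by ring, pow_mul, z3, one_pow]
  rw [mul_inv_eq_iff_eq_mul] at h1 ⊢
  rw [mul_assoc, h1, ← mul_assoc, ← mul_assoc, k, one_mul]

theorem E.adjust (hz : ∀ g, z * g = g * z) (z3 : z ^ 3 = 1) {x y r : G} (hxy : E z x y 1)
    {a b : ℕ} (h1 : E z x r a) (h2 : E z y r b) :
    x * (r * (x ^ b * y ^ (2 * a))) = r * (x ^ b * y ^ (2 * a)) * x ∧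
      y * (r * (x ^ b * y ^ (2 * a))) = r * (x ^ b * y ^ (2 * a)) * y := by
  have k1 := h1.mul hz (((E.of_comm (z := z) (g := x) (r := x) rfl).pow hz b).mul hz
    (hxy.pow hz (2 * a)))
  have k2 := h2.mul hz (((hxy.symm hz z3).pow hz b).mul hz
    ((E.of_comm (z := z) (g := y) (r := y) rfl).pow hz (2 * a)))
  rw [show a + (0 * b + 1 * (2 * a)) = 3 * a by ring] at k1
  rw [show b + (2 * 1 * b + 0 * (2 * a)) = 3 * b by ring] at k2
  exact ⟨k1.comm z3, k2.comm z3⟩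

theorem exists_pair (hz : ∀ g, z * g = g * z) (z3 : z ^ 3 = 1) {C : Set G}
    (hC : ∀ x ∈ C, ∀ y ∈ C, ∃ t < 3, E z x y t) {x y : G} (hx : x ∈ C) (hy : y ∈ C)
    (h : x * y ≠ y * x) : ∃ x ∈ C, ∃ y ∈ C, E z x y 1 := by
  obtain ⟨t, ht, e⟩ := hC x hx y hy
  interval_cases t
  · exact absurd (E.comm (a := 0) z3 e) h
  · exact ⟨x, hx, y, hy, e⟩
  · refine ⟨y, hy, x, hx, ?_⟩
    have := e.symm hz z3
    rwa [E, show 2 * 2 = 3 + 1 from rfl, pow_add, z3, one_mul] at this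

theorem exists_four (hz : ∀ g, z * g = g * z) (z3 : z ^ 3 = 1) {R : Subgroup G}
    (hR : ∀ x ∈ R, ∀ y ∈ R, ∃ t < 3, E z x y t) (hc : Nat.card (Subgroup.center R) = 3)
    (hn : 45 < Nat.card R) :
    ∃ x1 ∈ R, ∃ y1 ∈ R, ∃ x2 ∈ R, ∃ y2 ∈ R, E z x1 y1 1 ∧ E z x2 y2 1 ∧
      x1 * x2 = x2 * x1 ∧ x1 * y2 = y2 * x1 ∧ y1 * x2 = x2 * y1 ∧ y1 * y2 = y2 * y1 := by
  haveI : Finite (Subgroup.center R) := Nat.finite_of_card_ne_zero (by omega)
  obtain ⟨x, hx, y, hy, hxy⟩ : ∃ x ∈ R, ∃ y ∈ R, x * y ≠ y * x := by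
    by_contra hh
    push Not at hh
    have : Subgroup.center R = ⊤ := eq_top_iff.2 fun a _ =>
      Subgroup.mem_center_iff.2 fun b => Subtype.ext (hh _ b.2 _ a.2)
    rw [this, Subgroup.card_top] at hc
    omega
  obtain ⟨x1, hx1, y1, hy1, e1⟩ := exists_pair hz z3 (C := R) hR hx hy hxy
  let C : Set G := {r | r ∈ R ∧ x1 * r = r * x1 ∧ y1 * r = r * y1}
  have key : ∀ r ∈ R, ∃ (i : Fin 3) (j : Fin 5), r * (x1 ^ i.val * y1 ^ j.val) ∈ C := fun r hr => by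
    obtain ⟨a, ha, ea⟩ := hR x1 hx1 r hr
    obtain ⟨b, hb, eb⟩ := hR y1 hy1 r hr
    exact ⟨⟨b, hb⟩, ⟨2 * a, by omega⟩, mul_mem hr (mul_mem (pow_mem hx1 _) (pow_mem hy1 _)),
      E.adjust hz z3 e1 ea eb⟩
  obtain ⟨x, hx, y, hy, hxy⟩ : ∃ x ∈ C, ∃ y ∈ C, x * y ≠ y * x := by
    by_contra hh
    push Not at hh
    have hZ : ∀ c (hc : c ∈ C), (⟨c, hc.1⟩ : R) ∈ Subgroup.center R := fun c hc =>
      Subgroup.mem_center_iff.2 fun b => Subtype.ext (by
        obtain ⟨i, j, hb⟩ := key b b.2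
        have k1 : Commute c (b * (x1 ^ i.val * y1 ^ j.val)) := hh _ hc _ hb
        have k2 : Commute c (x1 ^ i.val * y1 ^ j.val) :=
          (Commute.pow_right hc.2.1.symm _).mul_right (Commute.pow_right hc.2.2.symm _)
        have := k1.mul_right k2.inv_right
        rw [mul_inv_cancel_right] at this
        exact this.symm.eq)
    let f : Fin 3 × Fin 5 × Subgroup.center R → R := fun p =>
      p.2.2.1 * (⟨x1, hx1⟩ ^ p.1.val * ⟨y1, hy1⟩ ^ p.2.1.val)⁻¹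
    have hf : Function.Surjective f := fun r => by
      obtain ⟨i, j, hb⟩ := key r r.2
      exact ⟨(i, j, ⟨_, hZ _ hb⟩), Subtype.ext (mul_inv_cancel_right _ _)⟩
    have := Nat.card_le_card_of_surjective f hf
    simp only [Nat.card_prod, hc, Nat.card_eq_fintype_card, Fintype.card_fin] at this
    omega
  obtain ⟨x2, hx2, y2, hy2, e2⟩ := exists_pair hz z3 (C := C)
    (fun a ha b hb => hR a ha.1 b hb.1) hx hy hxy
  exact ⟨x1, hx1, y1, hy1, x2, hx2.1, y2, hy2.1, e1, e2, hx2.2.1, hy2.2.1, hx2.2.2, hy2.2.2⟩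

end Grp

variable {F : Type*} [Field F] [Fintype F] {ι : Type} [Fintype ι] [DecidableEq ι]

local notation "𝐆" => GL (Fin 3) F
local notation "𝐇" => GL I9 F

variable {ω : F} (h : Om ω)

/-- the scalar `ω` -/
def zz (ι : Type) [Fintype ι] [DecidableEq ι] : GL ι F := scal ι (Units.mk0 ω h.ne_zero)

theorem zz_comm (g : GL ι F) : zz h ι * g = g * zz h ι := scal_comm _ _

theorem zz_cube : zz h ι ^ 3 = 1 := by
  rw [zz, ← scal_pow, ← scal_one]
  congr 1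
  exact Units.ext h.cube

theorem scal_cases {c : Fˣ} (hc : c ^ 3 = 1) : ∃ t < 3, scal ι c = zz h ι ^ t := by
  have h1 : (c : F) ^ 3 = 1 := by rw [← Units.val_pow_eq_pow_val, hc, Units.val_one]
  rcases h.cases h1 with e | e | e
  · exact ⟨0, by omega, by rw [zz, ← scal_pow]; congr 1; exact Units.ext (by simpa using e)⟩
  · exact ⟨1, by omega, by rw [zz, ← scal_pow]; congr 1; exact Units.ext (by simpa using e)⟩
  · exact ⟨2, by omega, by rw [zz, ← scal_pow]; congr 1; exact Units.ext (by simpa using e)⟩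

theorem exists_E [Nonempty ι] {R : Subgroup (GL ι F)} (h3 : ∀ r ∈ R, r ^ 3 = 1)
    (hc : ∀ x ∈ R, ∀ y ∈ R, x * y * x⁻¹ * y⁻¹ ∈ scalars ι F) :
    ∀ x ∈ R, ∀ y ∈ R, ∃ t < 3, E (zz h ι) x y t := fun x hx y hy => by
  obtain ⟨c, e⟩ := mem_scalars_iff'.1 (hc x hx y hy)
  have k := h3 _ (mul_mem (mul_mem (mul_mem hx hy) (inv_mem hx)) (inv_mem hy))
  rw [e, ← scal_pow, ← scal_one] at k
  obtain ⟨t, ht, e2⟩ := scal_cases (ι := ι) h (scal_injective k)
  exact ⟨t, ht, by rw [E, ← e2, ← e, inv_mul_cancel_right]⟩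

theorem E_mulVec {x y : GL ι F} (e : E (zz h ι) x y 1) (u : ι → F) :
    (x : Matrix ι ι F) *ᵥ ((y : Matrix ι ι F) *ᵥ u) =
      ω • (y : Matrix ι ι F) *ᵥ ((x : Matrix ι ι F) *ᵥ u) := by
  rw [E, mul_inv_eq_iff_eq_mul, pow_one] at e
  rw [mulVec_mulVec, mulVec_mulVec, ← Units.val_mul, e, mul_assoc, Units.val_mul, zz, coe_scal,
    smul_mul_assoc, one_mul, smul_mulVec, Units.val_mul, Units.val_mk0]

theorem E_pow_mulVec {x y : GL ι F} (e : E (zz h ι) x y 1) (k : ℕ) (u : ι → F) :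
    (x : Matrix ι ι F) *ᵥ (((y ^ k : GL ι F) : Matrix ι ι F) *ᵥ u) =
      ω ^ k • ((y ^ k : GL ι F) : Matrix ι ι F) *ᵥ ((x : Matrix ι ι F) *ᵥ u) := by
  induction k with
  | zero => simp
  | succ k ih =>
    rw [pow_succ', Units.val_mul, ← mulVec_mulVec, E_mulVec h e, ih, mulVec_smul, smul_smul,
      ← mulVec_mulVec, pow_succ']

theorem comm_mulVec {x y : GL ι F} (e : x * y = y * x) (u : ι → F) :
    (x : Matrix ι ι F) *ᵥ ((y : Matrix ι ι F) *ᵥ u) =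
      (y : Matrix ι ι F) *ᵥ ((x : Matrix ι ι F) *ᵥ u) := by
  rw [mulVec_mulVec, mulVec_mulVec, ← Units.val_mul, e, Units.val_mul]

theorem mulVec_ne_zero (g : GL ι F) {u : ι → F} (hu : u ≠ 0) : (g : Matrix ι ι F) *ᵥ u ≠ 0 :=
  fun e => hu (by rw [← inv_mulVec_mulVec g u, e, mulVec_zero])

theorem exists_fixed {x y : GL ι F} (x3 : x ^ 3 = 1) (e : E (zz h ι) x y 1)
    {W : Submodule F (ι → F)} (hx : ∀ u ∈ W, (x : Matrix ι ι F) *ᵥ u ∈ W)
    (hy : ∀ u ∈ W, (y : Matrix ι ι F) *ᵥ u ∈ W) {u : ι → F} (hu : u ∈ W) (u0 : u ≠ 0) :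
    ∃ v ∈ W, v ≠ 0 ∧ (x : Matrix ι ι F) *ᵥ v = v := by
  have hyk : ∀ k : ℕ, ∀ u ∈ W, ((y ^ k : GL ι F) : Matrix ι ι F) *ᵥ u ∈ W := fun k => by
    induction k with
    | zero => simp
    | succ k ih =>
      intro u hu
      rw [pow_succ', Units.val_mul, ← mulVec_mulVec]
      exact hy _ (ih u hu)
  have x3' : (x : Matrix ι ι F) *ᵥ ((x : Matrix ι ι F) *ᵥ ((x : Matrix ι ι F) *ᵥ u)) = u := by
    rw [mulVec_mulVec, mulVec_mulVec, ← Units.val_mul, ← Units.val_mul, ← pow_three', x3,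
      Units.val_one, one_mulVec]
  let U : ℕ → ι → F := fun k => u + ω ^ k • (x : Matrix ι ι F) *ᵥ u +
    (ω ^ k) ^ 2 • (x : Matrix ι ι F) *ᵥ ((x : Matrix ι ι F) *ᵥ u)
  obtain ⟨k, hk⟩ : ∃ k, U k ≠ 0 := by
    by_contra hh
    push Not at hh
    have k0 := hh 0
    have k1 := hh 1
    have k2 := hh 2
    simp only [U] at k0 k1 k2
    have e1 := h.eq
    have e2 : (ω ^ 1) ^ 2 + (ω ^ 2) ^ 2 + 1 = 0 := by linear_combination (ω ^ 2 - ω + 1) * h.eq
    have : (3 : F) • u = 0 := by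
      linear_combination (norm := module) k0 + k1 + k2 - e1 • ((x : Matrix ι ι F) *ᵥ u) -
        e2 • ((x : Matrix ι ι F) *ᵥ ((x : Matrix ι ι F) *ᵥ u))
    exact u0 ((smul_eq_zero.1 this).resolve_left h.three)
  refine ⟨((y ^ k : GL ι F) : Matrix ι ι F) *ᵥ U k, hyk _ _ (add_mem (add_mem hu
    (W.smul_mem _ (hx _ hu))) (W.smul_mem _ (hx _ (hx _ hu)))), mulVec_ne_zero _ hk, ?_⟩
  rw [E_pow_mulVec h e, ← mulVec_smul]
  congr 1
  have c3 : (ω ^ k) ^ 3 = 1 := by rw [← pow_mul, mul_comm, pow_mul, h.cube, one_pow]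
  simp only [U, mulVec_add, mulVec_smul, x3']
  linear_combination (norm := module) c3 • u

theorem xG_apply (i j : Fin 3) :
    ((h.xG : 𝐆) : Matrix (Fin 3) (Fin 3) F) i j = if i = j then ω ^ j.val else 0 := by
  change dM 1 ω (ω ^ 2) i j = _
  fin_cases i <;> fin_cases j <;> simp [dM]

theorem yG_apply (i j : Fin 3) :
    ((yG F : 𝐆) : Matrix (Fin 3) (Fin 3) F) i j = if i = j + 1 then 1 else 0 := by
  change yM F i j = _
  fin_cases i <;> fin_cases j <;> simp [yM]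

theorem x1_single (a : I9) : ((k1 h.xG : 𝐇) : Matrix I9 I9 F) *ᵥ Pi.single a 1 =
    ω ^ a.1.val • (Pi.single a 1 : I9 → F) := by
  ext b
  rw [mulVec_single_one, col_apply, k1_apply, xG_apply]
  by_cases e : b = a
  · simp [e]
  · by_cases e1 : b.2 = a.2
    · have : b.1 ≠ a.1 := fun e2 => e (Prod.ext e2 e1)
      simp [e, this]
    · simp [e, e1]

theorem x2_single (a : I9) : ((k2 h.xG : 𝐇) : Matrix I9 I9 F) *ᵥ Pi.single a 1 =
    ω ^ a.2.val • (Pi.single a 1 : I9 → F) := by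
  ext b
  rw [mulVec_single_one, col_apply, k2_apply, xG_apply]
  by_cases e : b = a
  · simp [e]
  · by_cases e1 : b.1 = a.1
    · have : b.2 ≠ a.2 := fun e2 => e (Prod.ext e1 e2)
      simp [e, this]
    · simp [e, e1]

theorem y1_single (a : I9) : ((k1 (yG F) : 𝐇) : Matrix I9 I9 F) *ᵥ Pi.single a 1 =
    (Pi.single (a.1 + 1, a.2) 1 : I9 → F) := by
  ext b
  rw [mulVec_single_one, col_apply, k1_apply, yG_apply, Pi.single_apply]
  by_cases e1 : b.2 = a.2 <;> simp [e1, Prod.ext_iff]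

theorem y2_single (a : I9) : ((k2 (yG F) : 𝐇) : Matrix I9 I9 F) *ᵥ Pi.single a 1 =
    (Pi.single (a.1, a.2 + 1) 1 : I9 → F) := by
  ext b
  rw [mulVec_single_one, col_apply, k2_apply, yG_apply, Pi.single_apply]
  by_cases e1 : b.1 = a.1 <;> simp [e1, Prod.ext_iff]

include h in
theorem pow_inj {i j : Fin 3} (e : ω ^ i.val = ω ^ j.val) : i = j :=
  h.w_inj (a := i) (b := j) e

include h in
theorem sep {κ V : Type*} [Fintype κ] [AddCommGroup V] [Module F V] (T : V →ₗ[F] V) (b : κ → V)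
    (f : κ → Fin 3) (hT : ∀ a, T (b a) = ω ^ (f a).val • b a) {c : κ → F}
    (hc : ∑ a, c a • b a = 0) (i : Fin 3) : ∑ a, (if f a = i then c a else 0) • b a = 0 := by
  have k : ∀ {c : κ → F}, ∑ a, c a • b a = 0 → ∑ a, (c a * ω ^ (f a).val) • b a = 0 := fun {c} hc => by
    have := congrArg T hc
    rw [map_sum, map_zero] at this
    simpa only [map_smul, hT, smul_smul] using this
  have k1 := k hc
  have k2 := k k1
  have k3 : ∑ a, (3 * if f a = i then c a else 0) • b a = 0 := by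
    have := congrArg₂ (· + ·) (congrArg₂ (· + ·) hc (congrArg (((ω ^ i.val) ^ 2) • ·) k1))
      (congrArg ((ω ^ i.val) • ·) k2)
    simp only [smul_zero, add_zero, Finset.smul_sum, ← Finset.sum_add_distrib, smul_smul,
      ← add_smul] at this
    rw [← this]
    refine Finset.sum_congr rfl fun a _ => ?_
    congr 1
    have e1 := h.eq
    have e3 := h.cube
    generalize f a = j
    fin_cases i <;> fin_cases j <;> simp <;>
      first | ring1 | linear_combination (-c a) * e1 | linear_combination (-2 * c a) * e3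
            | linear_combination (-c a * (ω ^ 2 - ω + 1)) * e1
            | linear_combination (-c a * (2 * ω ^ 3 + 2)) * e3
            | linear_combination (-c a) * e1 - c a * (ω ^ 2 + ω) * e3
  simp only [← smul_smul, ← Finset.smul_sum] at k3
  exact (smul_eq_zero.1 k3).resolve_left h.three

theorem exists_frame9 (e : ι ≃ I9) {x1 y1 x2 y2 : GL ι F} (c1 : x1 ^ 3 = 1) (c2 : y1 ^ 3 = 1)
    (c3 : x2 ^ 3 = 1) (c4 : y2 ^ 3 = 1) (e1 : E (zz h ι) x1 y1 1) (e2 : E (zz h ι) x2 y2 1)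
    (xx : x1 * x2 = x2 * x1) (xy : x1 * y2 = y2 * x1) (yx : y1 * x2 = x2 * y1)
    (yy : y1 * y2 = y2 * y1) :
    ∃ P : GL ι F, frmG e P (k1 h.xG) = x1 ∧ frmG e P (k1 (yG F)) = y1 ∧
      frmG e P (k2 h.xG) = x2 ∧ frmG e P (k2 (yG F)) = y2 := by
  obtain ⟨u, -, u0, hu⟩ := exists_fixed h c1 e1 (W := ⊤) (fun _ _ => trivial) (fun _ _ => trivial)
    (u := Pi.single (e.symm 0) 1) trivial (by simp)
  obtain ⟨v, hv1, v0, hv2⟩ := exists_fixed h c3 e2
    (W := LinearMap.eqLocus (toLin' (x1 : Matrix ι ι F)) LinearMap.id)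
    (fun u hu => by
      simp only [LinearMap.mem_eqLocus, toLin'_apply, LinearMap.id_apply] at hu ⊢
      rw [comm_mulVec xx, hu])
    (fun u hu => by
      simp only [LinearMap.mem_eqLocus, toLin'_apply, LinearMap.id_apply] at hu ⊢
      rw [comm_mulVec xy, hu]) (u := u) hu u0
  replace hv1 : (x1 : Matrix ι ι F) *ᵥ v = v := hv1
  let b : I9 → ι → F := fun a => ((y1 ^ a.1.val : GL ι F) : Matrix ι ι F) *ᵥ
    (((y2 ^ a.2.val : GL ι F) : Matrix ι ι F) *ᵥ v)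
  have b1 : ∀ a, (x1 : Matrix ι ι F) *ᵥ b a = ω ^ a.1.val • b a := fun a => by
    simp only [b]
    rw [E_pow_mulVec h e1, comm_mulVec (Commute.pow_right xy _).eq, hv1]
  have b2 : ∀ a, (x2 : Matrix ι ι F) *ᵥ b a = ω ^ a.2.val • b a := fun a => by
    simp only [b]
    rw [comm_mulVec (Commute.pow_right yx.symm _).eq, E_pow_mulVec h e2, hv2, mulVec_smul]
  have s3 : ∀ {y : GL ι F}, y ^ 3 = 1 → ∀ i : Fin 3, y * y ^ i.val = y ^ (i + 1).val := fun {y} c i => by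
    rw [← pow_succ', Fin.val_add, ← pow_eq_pow_mod _ c]; rfl
  have b3 : ∀ a, (y1 : Matrix ι ι F) *ᵥ b a = b (a.1 + 1, a.2) := fun a => by
    simp only [b]
    rw [mulVec_mulVec, ← Units.val_mul, s3 c2]
  have b4 : ∀ a, (y2 : Matrix ι ι F) *ᵥ b a = b (a.1, a.2 + 1) := fun a => by
    simp only [b]
    rw [comm_mulVec (Commute.pow_right yy.symm _).eq, mulVec_mulVec _ (y2 : Matrix ι ι F),
      ← Units.val_mul, s3 c4]
  have li : LinearIndependent F b := by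
    rw [Fintype.linearIndependent_iff]
    intro c hc a
    have k1 := sep h (toLin' (x1 : Matrix ι ι F)) b Prod.fst b1 hc a.1
    have k2 := sep h (toLin' (x2 : Matrix ι ι F)) b Prod.snd b2 k1 a.2
    rw [Finset.sum_eq_single a (fun d _ hd => by
      by_cases h2 : d.2 = a.2
      · have : d.1 ≠ a.1 := fun h1 => hd (Prod.ext h1 h2)
        simp [this]
      · simp [h2]) (by simp)] at k2
    simp only [if_true] at k2
    exact (smul_eq_zero.1 k2).resolve_right (mulVec_ne_zero _ (mulVec_ne_zero _ v0))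
  let B : Module.Basis I9 F (ι → F) := basisOfLinearIndependentOfCardEqFinrank li
    (by simp [Fintype.card_congr e])
  have hB : ∀ a, B a = b a := fun a => congrFun (coe_basisOfLinearIndependentOfCardEqFinrank li _) a
  obtain ⟨P, -, hP⟩ := H10.exists_frame_single e B
  have fin : ∀ {g : 𝐇} {x : GL ι F}, (∀ a, frmV e P ((g : Matrix I9 I9 F) *ᵥ Pi.single a 1) =
      (x : Matrix ι ι F) *ᵥ b a) → frmG e P g = x := fun {g x} hh => by
    apply Units.ext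
    apply toLin'.injective
    refine B.ext fun a => ?_
    rw [toLin'_apply, toLin'_apply, ← hP, frmG_mulVec, hh, hP, hB]
  refine ⟨P, fin fun a => ?_, fin fun a => ?_, fin fun a => ?_, fin fun a => ?_⟩
  · rw [x1_single, map_smul, hP, hB, b1]
  · rw [y1_single, hP, hB, b3]
  · rw [x2_single, map_smul, hP, hB, b2]
  · rw [y2_single, hP, hB, b4]

theorem off_diag {κ : Type} [Fintype κ] [DecidableEq κ] {D g : Matrix κ κ F} {d : κ → F}
    (hD : ∀ a, D *ᵥ Pi.single a 1 = d a • (Pi.single a 1 : κ → F)) (e : D * g = g * D) {a b : κ}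
    (hab : d a ≠ d b) : g a b = 0 := by
  have : D = diagonal d := by
    ext i j
    have := congrFun (hD j) i
    rw [mulVec_single_one, col_apply] at this
    rw [this, diagonal_apply]
    by_cases e : i = j <;> simp [e]
  have k := congrFun (congrFun e a) b
  rw [this, diagonal_mul, mul_diagonal] at k
  exact mul_left_cancel₀ (sub_ne_zero.2 hab) (by linear_combination k)

theorem scalar_of_comm {g : 𝐇} (a1 : k1 h.xG * g = g * k1 h.xG) (a2 : k1 (yG F) * g = g * k1 (yG F))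
    (a3 : k2 h.xG * g = g * k2 h.xG) (a4 : k2 (yG F) * g = g * k2 (yG F)) : g ∈ scalars I9 F := by
  have z0 : ∀ a b : I9, a ≠ b → (g : Matrix I9 I9 F) a b = 0 := fun a b hab => by
    by_cases e : a.1 = b.1
    · exact off_diag (x2_single h) (congrArg Units.val a3) fun e2 =>
        hab (Prod.ext e (pow_inj h e2))
    · exact off_diag (x1_single h) (congrArg Units.val a1) fun e2 => e (pow_inj h e2)
  have z1 : ∀ a : I9, (g : Matrix I9 I9 F) *ᵥ Pi.single a 1 =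
      (g : Matrix I9 I9 F) a a • (Pi.single a 1 : I9 → F) := fun a => by
    ext b
    rw [mulVec_single_one, col_apply]
    by_cases e : b = a
    · simp [e]
    · simp [e, z0 b a e]
  have d1 : ∀ i j, (g : Matrix I9 I9 F) (i + 1, j) (i + 1, j) = (g : Matrix I9 I9 F) (i, j) (i, j) :=
    fun i j => by
      have := congrFun (comm_mulVec a2 (Pi.single (i, j) 1)) (i + 1, j)
      rw [z1, mulVec_smul, y1_single, z1] at this
      simpa using this.symm
  have d2 : ∀ i j, (g : Matrix I9 I9 F) (i, j + 1) (i, j + 1) = (g : Matrix I9 I9 F) (i, j) (i, j) :=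
    fun i j => by
      have := congrFun (comm_mulVec a4 (Pi.single (i, j) 1)) (i, j + 1)
      rw [z1, mulVec_smul, y2_single, z1] at this
      simpa using this.symm
  have k : ∀ f : Fin 3 → F, (∀ i, f (i + 1) = f i) → ∀ i, f i = f 0 := fun f hf i => by
    fin_cases i
    exacts [rfl, hf 0, (hf 1).trans (hf 0)]
  refine mem_scalars_of_coe_eq (c := (g : Matrix I9 I9 F) 0 0) ?_
  ext ⟨i, j⟩ b
  by_cases e : (i, j) = b
  · subst e
    rw [k (fun i => (g : Matrix I9 I9 F) (i, j) (i, j)) (fun i => d1 i j) i,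
      k (fun j => (g : Matrix I9 I9 F) (0, j) (0, j)) (fun j => d2 0 j) j]
    simp; rfl
  · simp [z0 _ _ e, e]

theorem E_xy : E (zz h (Fin 3)) h.xG (yG F) 1 := by
  rw [E, mul_inv_eq_iff_eq_mul, pow_one, mul_assoc]
  apply Units.ext
  rw [Units.val_mul (zz h _), zz, coe_scal, smul_mul_assoc, one_mul]
  exact h.xy

theorem E_map {G H : Type*} [Group G] [Group H] (φ : G →* H) {z g r : G} {t : ℕ} (e : E z g r t) :
    E (φ z) (φ g) (φ r) t := by
  have := congrArg φ e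
  simpa only [E, map_mul, map_inv, map_pow] using this

theorem E1 : E (zz h I9) (k1 h.xG) (k1 (yG F)) 1 := by
  have := E_map k1 (E_xy h)
  rwa [zz, k1_scal] at this

theorem E2 : E (zz h I9) (k2 h.xG) (k2 (yG F)) 1 := by
  have := E_map k2 (E_xy h)
  rwa [zz, k2_scal] at this

theorem scal_mem_RS3 (c : Fˣ) : scal (Fin 3) c ∈ RS3 h :=
  ⟨0, by rw [coe_scal]; exact (ty_one ω).smul _⟩

theorem eq_of_mem_RS3 {r : 𝐆} (hr : r ∈ RS3 h) :
    ∃ (c : Fˣ) (i j : ℕ), r = scal (Fin 3) c * (h.xG ^ i * yG F ^ j) := by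
  obtain ⟨v, hv⟩ := hr
  obtain ⟨c, hc⟩ := h.eq_of_ty hv
  have c0 : c ≠ 0 := by
    rintro rfl
    exact Units.ne_zero r (by rw [hc, zero_smul])
  refine ⟨Units.mk0 c c0, v.1.val, v.2.val, Units.ext ?_⟩
  rw [Units.val_mul, coe_scal, smul_mul_assoc, one_mul, hc]
  rfl

theorem RS9_eq {R : Subgroup 𝐇} (x1 : k1 h.xG ∈ R) (y1 : k1 (yG F) ∈ R) (x2 : k2 h.xG ∈ R)
    (y2 : k2 (yG F) ∈ R) (hR : ∀ x ∈ R, ∀ y ∈ R, ∃ t < 3, E (zz h I9) x y t) :
    RS9 h = R ⊔ scalars I9 F := by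
  have hx : h.xG ∈ RS3 h := ⟨_, h.ty_x⟩
  have hy : yG F ∈ RS3 h := ⟨_, h.ty_y⟩
  have m1 : ∀ {g : 𝐆}, g ∈ RS3 h → k1 g ∈ RS9 h := fun hg => ⟨_, hg, 1, one_mem _, by simp⟩
  have m2 : ∀ {g : 𝐆}, g ∈ RS3 h → k2 g ∈ RS9 h := fun hg => ⟨1, one_mem _, _, hg, by simp⟩
  have hZ : scalars I9 F ≤ RS9 h := fun g hg => by
    obtain ⟨c, rfl⟩ := mem_scalars_iff'.1 hg
    rw [← k1_scal]
    exact m1 (scal_mem_RS3 h c)
  refine le_antisymm ?_ (sup_le (fun r hr => ?_) hZ)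
  · rintro _ ⟨r, hr, s, hs, rfl⟩
    obtain ⟨c, i, j, rfl⟩ := eq_of_mem_RS3 h hr
    obtain ⟨d, k, l, rfl⟩ := eq_of_mem_RS3 h hs
    simp only [map_mul, map_pow, k1_scal, k2_scal]
    exact mul_mem (mul_mem (Subgroup.mem_sup_right (scal_mem c))
      (Subgroup.mem_sup_left (mul_mem (pow_mem x1 _) (pow_mem y1 _))))
      (mul_mem (Subgroup.mem_sup_right (scal_mem d))
      (Subgroup.mem_sup_left (mul_mem (pow_mem x2 _) (pow_mem y2 _))))
  · obtain ⟨a, -, ea⟩ := hR _ x1 r hr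
    obtain ⟨b, -, eb⟩ := hR _ y1 r hr
    obtain ⟨k1', k2'⟩ := E.adjust (zz_comm h) (zz_cube h) (E1 h) ea eb
    have hr' := mul_mem hr (mul_mem (pow_mem x1 b) (pow_mem y1 (2 * a)))
    have hm : k1 h.xG ^ b * k1 (yG F) ^ (2 * a) ∈ RS9 h :=
      mul_mem (pow_mem (m1 hx) _) (pow_mem (m1 hy) _)
    generalize k1 h.xG ^ b * k1 (yG F) ^ (2 * a) = s at k1' k2' hr' hm
    obtain ⟨c, -, ec⟩ := hR _ x2 _ hr'
    obtain ⟨d, -, ed⟩ := hR _ y2 _ hr'
    obtain ⟨k3, k4⟩ := E.adjust (zz_comm h) (zz_cube h) (E2 h) ec ed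
    have hm' : k2 h.xG ^ d * k2 (yG F) ^ (2 * c) ∈ RS9 h :=
      mul_mem (pow_mem (m2 hx) _) (pow_mem (m2 hy) _)
    have cm : ∀ g : 𝐆, Commute (k1 g) (k2 h.xG ^ d * k2 (yG F) ^ (2 * c)) := fun g =>
      (Commute.pow_right (k1_k2 _ _) _).mul_right (Commute.pow_right (k1_k2 _ _) _)
    have := hZ (scalar_of_comm h (Commute.mul_right k1' (cm _)).eq (Commute.mul_right k2' (cm _)).eq
      k3 k4)
    have := mul_mem (mul_mem this (inv_mem hm')) (inv_mem hm)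
    rwa [mul_inv_cancel_right, mul_inv_cancel_right] at this

theorem normalizer_eq {R : Subgroup 𝐇} (x1 : k1 h.xG ∈ R) (y1 : k1 (yG F) ∈ R) (x2 : k2 h.xG ∈ R)
    (y2 : k2 (yG F) ∈ R) (hR : ∀ x ∈ R, ∀ y ∈ R, ∃ t < 3, E (zz h I9) x y t)
    (h3 : ∀ r ∈ R, r ^ 3 = 1) : Subgroup.normalizer (R : Set 𝐇) = NN h := by
  have hz : zz h I9 ∈ R := by
    have e := E1 h
    rw [E, pow_one, ← mul_inv_eq_iff_eq_mul] at e
    rw [← e]
    exact mul_mem (mul_mem (mul_mem x1 y1) (inv_mem x1)) (inv_mem y1)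
  have k : ∀ r, r ∈ R ↔ r ∈ RS9 h ∧ r ^ 3 = 1 := fun r => by
    rw [RS9_eq h x1 y1 x2 y2 hR]
    refine ⟨fun hr => ⟨Subgroup.mem_sup_left hr, h3 r hr⟩, fun ⟨a, b⟩ => ?_⟩
    obtain ⟨s, hs, c, rfl⟩ := mem_sup_scalars.1 a
    rw [Commute.mul_pow (scal_comm c s), h3 s hs, mul_one, ← scal_pow, ← scal_one] at b
    obtain ⟨t, -, e⟩ := scal_cases (ι := I9) h (scal_injective b)
    rw [e]
    exact mul_mem (pow_mem hz _) hs
  refine le_antisymm (fun g hg => ?_) fun g hg => ?_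
  · refine Subgroup.mem_normalizer_fintype fun r hr => ?_
    rw [SetLike.mem_coe, RS9_eq h x1 y1 x2 y2 hR] at hr ⊢
    obtain ⟨s, hs, c, rfl⟩ := mem_sup_scalars.1 hr
    refine mem_sup_scalars.2 ⟨_, (Subgroup.mem_normalizer_iff.1 hg s).1 hs, c, ?_⟩
    rw [← mul_assoc, ← scal_comm, mul_assoc, mul_assoc, mul_assoc]
  · refine Subgroup.mem_normalizer_fintype fun r hr => ?_
    rw [SetLike.mem_coe, k] at hr ⊢
    exact ⟨(Subgroup.mem_normalizer_iff.1 hg r).1 hr.1, by rw [conj_pow, hr.2, mul_one, mul_inv_cancel]⟩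

theorem exists_frame (h3 : (3 : F) ≠ 0) {R : Subgroup (GL (Fin 9) F)} (hR : IsSymplecticTypeGroup 3 R)
    (hi : ActsAbsolutelyIrreducibly (matrixSet R)) (hz : Nat.card (Subgroup.center R) = 3)
    (e : Fin 9 ≃ I9) : ∃ (ω : F) (h : Om ω) (P : GL (Fin 9) F), frmG e P (k1 h.xG) ∈ R ∧
      frmG e P (k1 (yG F)) ∈ R ∧ frmG e P (k2 h.xG) ∈ R ∧ frmG e P (k2 (yG F)) ∈ R ∧
      ∀ g, frmG e P g ∈ subgroupNormalizer R ↔ g ∈ NN h := by
  obtain ⟨hn, hc⟩ := card_sq_mul_card_center hR hi hz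
  have r3 : ∀ r ∈ R, r ^ 3 = 1 := fun r hr => by
    have := Monoid.pow_exponent_eq_one (⟨r, hr⟩ : R)
    rw [hR.exponent_eq] at this
    exact congrArg Subtype.val this
  obtain ⟨ω, h⟩ : ∃ ω : F, Om ω := by
    obtain ⟨x, hx, y, hy, hxy⟩ := exists_noncomm_of_span (by simp) (grpAlg_eq_top_of_absIrr hi)
    obtain ⟨c, e⟩ := mem_scalars_iff'.1 (hc x hx y hy)
    have k := r3 _ (mul_mem (mul_mem (mul_mem hx hy) (inv_mem hx)) (inv_mem hy))
    rw [e, ← scal_pow, ← scal_one] at k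
    refine ⟨c, om_of_cube h3 (by rw [← Units.val_pow_eq_pow_val, scal_injective k, Units.val_one])
      fun c1 => hxy ?_⟩
    rw [Units.val_eq_one.1 c1, scal_one, mul_inv_eq_one, mul_inv_eq_iff_eq_mul] at e
    exact e
  have hE := exists_E h r3 hc
  obtain ⟨x1, hx1, y1, hy1, x2, hx2, y2, hy2, e1, e2, a1, a2, a3, a4⟩ :=
    exists_four (zz_comm h) (zz_cube h) hE hz (by rw [← hn, hz]; simp)
  obtain ⟨P, p1, p2, p3, p4⟩ := exists_frame9 h e (r3 _ hx1) (r3 _ hy1) (r3 _ hx2) (r3 _ hy2)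
    e1 e2 a1 a2 a3 a4
  refine ⟨ω, h, P, p1 ▸ hx1, p2 ▸ hy1, p3 ▸ hx2, p4 ▸ hy2, fun g => ?_⟩
  rw [← normalizer_eq h (R := R.comap (frmG e P).toMonoidHom) (p1 ▸ hx1 :) (p2 ▸ hy1 :)
    (p3 ▸ hx2 :) (p4 ▸ hy2 :) (fun x hx y hy => ?_) fun r hr => ?_]
  · rw [subgroupNormalizer, Subgroup.mem_normalizer_iff, Subgroup.mem_normalizer_iff]
    refine ⟨fun hh r => ?_, fun hh r => ?_⟩
    · simpa using hh (frmG e P r)
    · simpa using hh ((frmG e P).symm r)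
  · obtain ⟨t, ht, et⟩ := hE _ hx _ hy
    refine ⟨t, ht, (frmG e P).injective ?_⟩
    simp only [map_mul, map_inv, map_pow, zz, frmG_scal]
    exact et
  · exact (frmG e P).injective (by rw [map_pow, map_one]; exact r3 _ hr)

theorem form_eq {σ : F ≃+* F} (hσ : σ ω = ω ^ 2) {f : (ι → F) → (ι → F) → F} (hf : IsSesq σ 1 f)
    {e : ι ≃ I9} {P : GL ι F} (x1 : frmG e P (k1 h.xG) ∈ H10.isoG f)
    (y1 : frmG e P (k1 (yG F)) ∈ H10.isoG f) (x2 : frmG e P (k2 h.xG) ∈ H10.isoG f)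
    (y2 : frmG e P (k2 (yG F)) ∈ H10.isoG f) :
    ∃ c ≠ 0, ∀ x y, f (frmV e P x) (frmV e P y) = c * sumHerm I9 σ x y := by
  let B : I9 → I9 → F := fun a b => f (frmV e P (Pi.single a 1)) (frmV e P (Pi.single b 1))
  have k0 : ∀ {i j : Fin 3} {t : F}, σ (ω ^ j.val) * (ω ^ i.val * t) = t → i ≠ j → t = 0 := by
    intro i j t e ne
    have c3 : (ω ^ j.val) ^ 3 = 1 := by rw [← pow_mul, mul_comm, pow_mul, h.cube, one_pow]
    rw [map_pow, hσ, ← pow_mul, mul_comm 2, pow_mul] at e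
    exact mul_left_cancel₀ (sub_ne_zero.2 fun e2 => ne (pow_inj h e2))
      (by linear_combination (ω ^ j.val) * e - (ω ^ i.val * t) * c3)
  have z0 : ∀ a b, a ≠ b → B a b = 0 := fun a b hab => by
    by_cases e1 : a.1 = b.1
    · have := H10.mem_isoG.1 x2 (frmV e P (Pi.single a 1)) (frmV e P (Pi.single b 1))
      rw [frmG_mulVec, frmG_mulVec, x2_single, x2_single, map_smul, map_smul, hf.smul_right,
        hf.smul_left] at this
      exact k0 this fun e2 => hab (Prod.ext e1 e2)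
    · have := H10.mem_isoG.1 x1 (frmV e P (Pi.single a 1)) (frmV e P (Pi.single b 1))
      rw [frmG_mulVec, frmG_mulVec, x1_single, x1_single, map_smul, map_smul, hf.smul_right,
        hf.smul_left] at this
      exact k0 this e1
  have d1 : ∀ i j, B (i + 1, j) (i + 1, j) = B (i, j) (i, j) := fun i j => by
    have := H10.mem_isoG.1 y1 (frmV e P (Pi.single (i, j) 1)) (frmV e P (Pi.single (i, j) 1))
    rwa [frmG_mulVec, y1_single] at this
  have d2 : ∀ i j, B (i, j + 1) (i, j + 1) = B (i, j) (i, j) := fun i j => by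
    have := H10.mem_isoG.1 y2 (frmV e P (Pi.single (i, j) 1)) (frmV e P (Pi.single (i, j) 1))
    rwa [frmG_mulVec, y2_single] at this
  have k : ∀ f : Fin 3 → F, (∀ i, f (i + 1) = f i) → ∀ i, f i = f 0 := fun f hf i => by
    fin_cases i
    exacts [rfl, hf 0, (hf 1).trans (hf 0)]
  have hB : ∀ a b, B a b = if a = b then B 0 0 else 0 := fun ⟨i, j⟩ b => by
    split_ifs with e1
    · subst e1
      rw [k (fun i => B (i, j) (i, j)) (fun i => d1 i j) i, k (fun j => B (0, j) (0, j)) (d2 0) j]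
      rfl
    · exact z0 _ _ e1
  have fin : ∀ x y, f (frmV e P x) (frmV e P y) = B 0 0 * sumHerm I9 σ x y := fun x y => by
    rw [H10.form_frmV_of_single hf, sumHerm, Finset.mul_sum]
    refine Finset.sum_congr rfl fun a _ => ?_
    rw [Finset.sum_eq_single a (fun b _ hb => by
      change x a * B a b * _ = 0
      rw [z0 a b hb.symm]; simp) (by simp)]
    change x a * B a a * _ = _
    rw [hB a a, if_pos rfl]; ring
  refine ⟨B 0 0, fun c0 => ?_, fin⟩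
  have := hf.eq_zero_of_left (v := frmV e P (Pi.single 0 1)) fun x => by
    obtain ⟨y, rfl⟩ := (frmV e P).surjective x
    rw [fin, c0, zero_mul]
  simp at this

theorem bd_mem_sl {f : Fin 3 → 𝐆} (hf : ∏ k, (f k : Matrix (Fin 3) (Fin 3) F).det = 1) :
    bd f ∈ specialLinear I9 F :=
  mem_sl.2 ((det_blockDiagonal fun k => (f k : Matrix (Fin 3) (Fin 3) F)).trans hf)

theorem sw_mem_sl : scal I9 (-1) * sw F ∈ specialLinear I9 F := by
  have e : Equiv.Perm.sign (Equiv.prodComm (Fin 3) (Fin 3))⁻¹ = -1 := by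
    rw [show (Equiv.prodComm (Fin 3) (Fin 3))⁻¹ = Equiv.swap (0, 1) (1, 0) *
      Equiv.swap (0, 2) (2, 0) * Equiv.swap (1, 2) (2, 1) by decide]
    simp only [map_mul]
    rw [Equiv.Perm.sign_swap (by decide), Equiv.Perm.sign_swap (by decide),
      Equiv.Perm.sign_swap (by decide)]
    simp
  have d : ((sw F : 𝐇) : Matrix I9 I9 F).det = -1 := by
    have := det_permutation (R := F) (Equiv.prodComm (Fin 3) (Fin 3))⁻¹
    rw [e] at this
    exact this.trans (by simp)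
  rw [mem_sl, Units.val_mul, det_mul, d, coe_scal, det_smul]
  simp
  norm_num

theorem gens_sl : k1 (yG F) ∈ specialLinear I9 F ∧ k1 h.h1 ∈ specialLinear I9 F ∧
    k1 h.dG ∈ specialLinear I9 F ∧ scal I9 (-1) * sw F ∈ specialLinear I9 F ∧
    cx F ∈ specialLinear I9 F := by
  have y1 : ((yG F : 𝐆) : Matrix (Fin 3) (Fin 3) F).det = 1 := det_yM
  have a1 : ((h.h1 : 𝐆) : Matrix (Fin 3) (Fin 3) F).det = 1 := h.det_h1
  have d1 : ((h.dG : 𝐆) : Matrix (Fin 3) (Fin 3) F).det = ω := (det_dM ω 1 1).trans (by simp)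
  refine ⟨bd_mem_sl (by simp [y1]), bd_mem_sl (by simp [a1]), bd_mem_sl ?_, sw_mem_sl,
    bd_mem_sl (by simp [y1])⟩
  simpa [d1] using h.cube

theorem bd_mulVec (f : Fin 3 → 𝐆) (u : I9 → F) (i k : Fin 3) :
    (((bd f : 𝐇) : Matrix I9 I9 F) *ᵥ u) (i, k) =
      ((f k : Matrix (Fin 3) (Fin 3) F) *ᵥ fun j => u (j, k)) i := by
  simp [mulVec, dotProduct, bd_apply, Fintype.sum_prod_type]

theorem bd_mem_iso {σ : F ≃+* F} {f : Fin 3 → 𝐆} (hf : ∀ k, f k ∈ H10.isoG (sumHerm (Fin 3) σ)) :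
    bd f ∈ H10.isoG (sumHerm I9 σ) := H10.mem_isoG.2 fun u v => by
  simp only [sumHerm, Fintype.sum_prod_type_right, bd_mulVec]
  exact Finset.sum_congr rfl fun k _ => H10.mem_isoG.1 (hf k) _ _

theorem pm_mem_iso {σ : F ≃+* F} {κ : Type} [Fintype κ] [DecidableEq κ] (s : Equiv.Perm κ) :
    pm F s ∈ H10.isoG (sumHerm κ σ) := H10.mem_isoG.2 fun u v => by
  simp only [sumHerm, pm_mulVec]
  exact Equiv.sum_comp s⁻¹ fun k => u k * σ (v k)

theorem h1_mem_iso {σ : F ≃+* F} (hσ : σ ω = ω ^ 2) : h.h1 ∈ H10.isoG (sumHerm (Fin 3) σ) :=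
  H10.mem_isoG.2 fun u v => by
    have t0 := h.theta_ne
    have t1 : (ω - ω ^ 2) * σ (ω - ω ^ 2) = 3 := by
      rw [map_sub, map_pow, hσ]
      linear_combination (ω ^ 4 - 2 * ω ^ 3 + 3 * ω - 3) * h.eq
    have t2 : (ω - ω ^ 2)⁻¹ * σ (ω - ω ^ 2)⁻¹ * 3 = 1 := by
      rw [map_inv₀, ← mul_inv, t1, inv_mul_cancel₀ h.three]
    rw [Om.h1, coe_mk1, smul_mulVec, smul_mulVec]
    generalize (ω - ω ^ 2)⁻¹ = c at t2
    have k : sumHerm (Fin 3) σ (!![1, 1, 1; 1, ω, ω ^ 2; 1, ω ^ 2, ω] *ᵥ u)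
        (!![1, 1, 1; 1, ω, ω ^ 2; 1, ω ^ 2, ω] *ᵥ v) = 3 * sumHerm (Fin 3) σ u v := by
      simp [sumHerm, Fin.sum_univ_three, mulVec, dotProduct, hσ]
      have e1 := h.eq
      have e3 := h.cube
      generalize σ (v 0) = a
      generalize σ (v 1) = b
      generalize σ (v 2) = d
      linear_combination ((ω ^ 2 - ω + 1) * u 0 * (b + d) + (u 1 + u 2) * a +
        (ω ^ 3 - ω + 1) * (u 1 * d + u 2 * b)) * e1 + (ω ^ 3 + 2) * (u 1 * b + u 2 * d) * e3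
    generalize !![1, 1, 1; 1, ω, ω ^ 2; 1, ω ^ 2, ω] *ᵥ u = a at k
    generalize !![1, 1, 1; 1, ω, ω ^ 2; 1, ω ^ 2, ω] *ᵥ v = b at k
    have hf : sumHerm (Fin 3) σ (c • a) (c • b) = c * σ c * sumHerm (Fin 3) σ a b := by
      simp only [sumHerm, Fin.sum_univ_three, Pi.smul_apply, smul_eq_mul, map_mul]; ring
    rw [hf, k, ← mul_assoc, t2, one_mul]

theorem dG_mem_iso {σ : F ≃+* F} (hσ : σ ω = ω ^ 2) : h.dG ∈ H10.isoG (sumHerm (Fin 3) σ) :=
  H10.mem_isoG.2 fun u v => by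
    rw [Om.dG, coe_mk3, dM_mulVec, dM_mulVec]
    simp [sumHerm, Fin.sum_univ_three, hσ]
    linear_combination (u 0 * σ (v 0)) * h.cube

theorem gens_iso {σ : F ≃+* F} (hσ : σ ω = ω ^ 2) :
    k1 (yG F) ∈ H10.isoG (sumHerm I9 σ) ∧ k1 h.h1 ∈ H10.isoG (sumHerm I9 σ) ∧
    k1 h.dG ∈ H10.isoG (sumHerm I9 σ) ∧ scal I9 (-1) * sw F ∈ H10.isoG (sumHerm I9 σ) ∧
    cx F ∈ H10.isoG (sumHerm I9 σ) := by
  have y1 : yG F ∈ H10.isoG (sumHerm (Fin 3) σ) := yG_eq (F := F) ▸ pm_mem_iso _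
  refine ⟨bd_mem_iso fun _ => y1, bd_mem_iso fun _ => h1_mem_iso h hσ,
    bd_mem_iso fun _ => dG_mem_iso h hσ, mul_mem (H10.mem_isoG.2 fun u v => ?_) (pm_mem_iso _),
    bd_mem_iso fun _ => pow_mem y1 _⟩
  simp [sumHerm, coe_scal, neg_mulVec]

theorem max_of {G : Type*} [Group G] (φ : 𝐇 ≃* G) {G0 N0 : Subgroup G} {G1 : Subgroup 𝐇}
    (hG : ∀ g, φ g ∈ G0 ↔ g ∈ G1) (hN : ∀ g, φ g ∈ N0 ↔ g ∈ NN h) (cl : Cl h (NN h))
    (gens : k1 (yG F) ∈ G1 ∧ k1 h.h1 ∈ G1 ∧ k1 h.dG ∈ G1 ∧ scal I9 (-1) * sw F ∈ G1 ∧ cx F ∈ G1)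
    (core : ∀ M ≤ G1, Cl h (M ⊔ scalars I9 F) → M ⊔ scalars I9 F ≤ NN h ∨ G1 ≤ M ⊔ scalars I9 F)
    (pr : ¬ G0 ≤ N0) : IsMaximalIn G0 (N0 ⊓ G0) := by
  refine ⟨lt_of_le_of_ne inf_le_right fun e => pr (e ▸ inf_le_left), fun M0 h1 h2 => ?_⟩
  obtain ⟨g1, g2, g3, g4, g5⟩ := gens
  let M := M0.comap φ.toMonoidHom
  have k : ∀ {g}, g ∈ NN h → g ∈ G1 → g ∈ M := fun a b => h1 ⟨(hN _).2 a, (hG _).2 b⟩
  have hM : M ≤ G1 := fun g hg => (hG g).1 (h2 hg)
  have c : Cl h (M ⊔ scalars I9 F) := ⟨le_sup_right, Subgroup.mem_sup_left (k cl.x g1),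
    Subgroup.mem_sup_left (k cl.a g2), Subgroup.mem_sup_left (k cl.t g3),
    mem_sup_scalars.2 ⟨_, k (mul_mem (cl.sc (scal_mem _)) cl.sw) g4, -1, by
      rw [← mul_assoc, ← scal_mul, neg_mul_neg, one_mul, scal_one, one_mul]⟩,
    Subgroup.mem_sup_left (k cl.cx g5)⟩
  rcases core M hM c with h3 | h3
  · refine Or.inl (le_antisymm (le_inf (fun g hg => ?_) h2) h1)
    obtain ⟨g, rfl⟩ := φ.surjective g
    exact (hN g).2 (h3 (Subgroup.mem_sup_left hg))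
  · refine Or.inr (le_antisymm h2 fun g hg => ?_)
    obtain ⟨g, rfl⟩ := φ.surjective g
    obtain ⟨m, hm, d, rfl⟩ := mem_sup_scalars.1 (h3 ((hG g).1 hg))
    have : scal I9 d ∈ G1 := by
      simpa using mul_mem ((hG _).1 hg) (inv_mem (hM hm))
    exact mul_mem (k (cl.sc (scal_mem d)) this) hm

end Cfsg.Agent.H84.N9F
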